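import Cfsg.Prelude.Def_Transfer
import Mathlib.GroupTheory.Transfer
import Mathlib.GroupTheory.PGroup
import Mathlib.GroupTheory.Schreier
import Mathlib.GroupTheory.Index
import Mathlib.Tactic

/-!
An abelian Sylow subgroup with few generators whose automorphism primes avoid the group order is central in
its normaliser.
-/

set_option autoImplicit false

open scoped IsMulCommutative

namespace CfsgLib.CoprimeAction

variable {P : Type*} [CommGroup P] [Finite P] {p : ℕ}

/-- An automorphism of prime order `r ≠ p` of an abelian `p`-group divides some `p ^ i - 1`. -/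
theorem exists_dvd_pow_sub_one [hp : Fact p.Prime] (hP : IsPGroup p P) (ψ : MulAut P) {r : ℕ}
    [hr : Fact r.Prime] (hrp : r ≠ p) (ho : orderOf ψ = r) :
    ∃ i ∈ Finset.Icc 1 (Group.rank P), r ∣ p ^ i - 1 := by
  classical
  set A := (powMonoidHom p : P →* P).ker with hA
  have hpr : p.Coprime r := (Nat.coprime_primes hp.out hr.out).2 hrp.symm
  have hψr : ψ ^ r = 1 := ho ▸ pow_orderOf_eq_one ψ
  -- a nontrivial automorphism moves something in `A`
  have hmoves : ∃ z ∈ A, ψ z ≠ z := by
    by_contra hfix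
    push Not at hfix
    have hall : ∀ (k : ℕ) (y : P), y ^ p ^ k = 1 → ψ y = y := by
      intro k
      induction k with
      | zero => intro y hy; rw [pow_zero, pow_one] at hy; rw [hy, map_one]
      | succ k ih =>
        intro y hy
        have h1 : ψ (y ^ p) = y ^ p := ih _ (by rw [← pow_mul, ← pow_succ']; exact hy)
        have hz : ψ y * y⁻¹ ∈ A := by
          show (ψ y * y⁻¹) ^ p = 1
          rw [mul_pow, ← map_pow, h1, inv_pow, mul_inv_cancel]
        set z := ψ y * y⁻¹ with hzdef
        have hpow : ∀ n : ℕ, (ψ ^ n) y = z ^ n * y := by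
          intro n
          induction n with
          | zero => simp
          | succ n ihn =>
            rw [pow_succ', MulAut.mul_apply, ihn, map_mul, map_pow, hfix z hz, pow_succ, mul_assoc (z ^ n),
              hzdef, inv_mul_cancel_right]
        have h2 := hpow r
        rw [hψr, MulAut.one_apply] at h2
        have h3 : z ^ r = 1 := right_eq_mul.1 h2
        have h4 : z = 1 := by
          have h5 : orderOf z ∣ p.gcd r :=
            Nat.dvd_gcd (orderOf_dvd_of_pow_eq_one hz) (orderOf_dvd_of_pow_eq_one h3)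
          rw [hpr.gcd_eq_one, Nat.dvd_one, orderOf_eq_one_iff] at h5
          exact h5
        exact mul_inv_eq_one.1 h4
    have h1 : ψ = 1 := MulEquiv.ext fun y => by
      obtain ⟨k, hk⟩ := hP y
      exact hall k y hk
    rw [h1, orderOf_one] at ho
    exact hr.out.ne_one ho.symm
  obtain ⟨z, hzA, hz⟩ := hmoves
  -- the action of `⟨ψ⟩` on `A`
  letI : MulAction (Subgroup.zpowers ψ) A :=
    { smul := fun g a => ⟨(g : MulAut P) a, by
        show ((g : MulAut P) a) ^ p = 1
        rw [← map_pow, show (a : P) ^ p = 1 from a.2, map_one]⟩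
      one_smul := fun a => rfl
      mul_smul := fun g h a => rfl }
  have hgrp : IsPGroup r (Subgroup.zpowers ψ) := IsPGroup.of_card (n := 1) (by rw [Nat.card_zpowers, ho, pow_one])
  have hmod := hgrp.card_modEq_card_fixedPoints A
  let W : Subgroup P := A ⊓ (ψ.toMonoidHom.eqLocus (MonoidHom.id P))
  have hW : Nat.card (MulAction.fixedPoints (Subgroup.zpowers ψ) A) = Nat.card W :=
    Nat.card_congr
      { toFun := fun a => ⟨(a : A), (a : A).2, congrArg Subtype.val (a.2 ⟨ψ, Subgroup.mem_zpowers ψ⟩)⟩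
        invFun := fun w => ⟨⟨w, w.2.1⟩, fun g => Subtype.ext (by
          show (g : MulAut P) (w : P) = w
          have hle : Subgroup.zpowers ψ ≤ MulAction.stabilizer (MulAut P) (w : P) :=
            Subgroup.zpowers_le.2 w.2.2
          exact hle g.2)⟩
        left_inv := fun a => rfl
        right_inv := fun w => rfl }
  rw [hW] at hmod
  have hWA : W < A := lt_of_le_not_ge inf_le_left fun h => hz (h hzA).2
  have hAp : IsPGroup p A := hP.to_subgroup A
  obtain ⟨e, he⟩ := hAp.exists_card_eq
  obtain ⟨f, hfe, hf⟩ := (Nat.dvd_prime_pow hp.out).1 (he ▸ Subgroup.card_dvd_of_le hWA.le)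
  have hlt : f < e := by
    refine lt_of_le_of_ne hfe fun h => hWA.ne ?_
    exact Subgroup.eq_of_le_of_card_ge hWA.le (by rw [he, hf, h])
  rw [he, hf] at hmod
  have hdvd : r ∣ p ^ e - p ^ f := (Nat.modEq_iff_dvd' (Nat.pow_le_pow_right hp.out.pos hfe)).1 hmod.symm
  have hsplit : p ^ e - p ^ f = p ^ f * (p ^ (e - f) - 1) := by
    rw [Nat.mul_sub, ← pow_add, mul_one, Nat.add_sub_cancel' hfe]
  rw [hsplit] at hdvd
  refine ⟨e - f, Finset.mem_Icc.2 ⟨by omega, ?_⟩,
    (hr.out.coprime_iff_not_dvd.2 fun h => hrp ((Nat.prime_dvd_prime_iff_eq hr.out hp.out).1 (hr.out.dvd_of_dvd_pow h))).dvd_of_dvd_mul_left hdvd⟩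
  -- `|A| = |P / P^p| ∣ p ^ rank P`
  set R := (powMonoidHom p : P →* P).range with hR
  have hcard : Nat.card A = Nat.card (P ⧸ R) := by
    have h1 := A.card_mul_index
    rw [Subgroup.index_ker] at h1
    have h2 := R.card_mul_index
    rw [Subgroup.index_eq_card] at h2
    rw [← h2, mul_comm, Nat.mul_left_cancel_iff Nat.card_pos] at h1
    exact h1
  have hexp : ∀ g : P ⧸ R, g ^ p = 1 := by
    intro g
    obtain ⟨g, rfl⟩ := QuotientGroup.mk_surjective g
    rw [← QuotientGroup.mk_pow, QuotientGroup.eq_one_iff]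
    exact ⟨g, rfl⟩
  have hle : p ^ e ≤ p ^ Group.rank P := by
    rw [← he, hcard]
    refine (Nat.le_of_dvd (pow_pos hp.out.pos _) (card_dvd_exponent_pow_rank' (P ⧸ R) hexp)).trans ?_
    exact Nat.pow_le_pow_right hp.out.pos (Group.rank_le_of_surjective _ (QuotientGroup.mk'_surjective R))
  exact (Nat.sub_le _ _).trans ((Nat.pow_le_pow_iff_right hp.out.one_lt).1 hle)

variable {G : Type*} [Group G] [Finite G]

theorem normalizer_le_centralizer_of_coprime [hp : Fact p.Prime] (P : Sylow p G)
    (hab : IsMulCommutative (P : Subgroup G))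
    (hcop : ∀ r : ℕ, r.Prime → r ∣ Nat.card G → r ≠ p →
      ∀ i ∈ Finset.Icc 1 (Group.rank (P : Subgroup G)), ¬ r ∣ p ^ i - 1) :
    Subgroup.normalizer (P : Set G) ≤ Subgroup.centralizer (P : Set G) := by
  classical
  haveI := hab
  intro x hx
  let φ := Subgroup.normalizerMonoidHom (P : Subgroup G) ⟨x, hx⟩
  by_contra hnc
  have hφ : φ ≠ 1 := by
    intro h
    apply hnc
    rw [Subgroup.mem_centralizer_iff]
    intro y hy
    have h1 : x * y * x⁻¹ = y := congrArg Subtype.val (MulEquiv.congr_fun h ⟨y, hy⟩)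
    exact (mul_inv_eq_iff_eq_mul.1 h1).symm
  set o := orderOf φ with ho
  -- the order of the automorphism is prime to `p`
  have hpo : ¬ p ∣ o := by
    set s := ordCompl[p] (orderOf x)
    have hs : o ∣ s := by
      apply orderOf_dvd_of_pow_eq_one
      have h1 : IsPGroup p (Subgroup.zpowers (x ^ s)) := by
        have hd : orderOf (x ^ s) ∣ p ^ (orderOf x).factorization p := by
          apply orderOf_dvd_of_pow_eq_one
          rw [← pow_mul, mul_comm, Nat.ordProj_mul_ordCompl_eq_self, pow_orderOf_eq_one]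
        obtain ⟨k, -, hk⟩ := (Nat.dvd_prime_pow hp.out).1 hd
        exact IsPGroup.of_card (n := k) (by rw [Nat.card_zpowers, hk])
      have h2 : x ^ s ∈ (P : Subgroup G) := by
        have h3 := P.is_maximal' (IsPGroup.to_sup_of_normal_right' h1 P.isPGroup'
          (Subgroup.zpowers_le.2 (pow_mem hx s))) le_sup_right
        exact h3 ▸ Subgroup.mem_sup_left (Subgroup.mem_zpowers _)
      rw [← map_pow]
      refine MulEquiv.ext fun y => Subtype.ext ?_
      show x ^ s * (y : G) * (x ^ s)⁻¹ = y
      rw [show x ^ s * (y : G) = y * x ^ s from congrArg Subtype.val (mul_comm (⟨_, h2⟩ : (P : Subgroup G)) y),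
        mul_inv_cancel_right]
    exact fun h => Nat.not_dvd_ordCompl hp.out (orderOf_pos x).ne' (h.trans hs)
  obtain ⟨r, hr, hro⟩ := Nat.exists_prime_and_dvd (n := o) (fun h => hφ (orderOf_eq_one_iff.1 h))
  haveI : Fact r.Prime := ⟨hr⟩
  have hrp : r ≠ p := fun h => hpo (h ▸ hro)
  have hψ : orderOf (φ ^ (o / r)) = r := by
    rw [orderOf_pow_of_dvd (Nat.div_pos (Nat.le_of_dvd (orderOf_pos φ) hro) hr.pos).ne' (Nat.div_dvd_of_dvd hro),
      ← ho, Nat.div_div_self hro (orderOf_pos φ).ne']
  obtain ⟨i, hi, hri⟩ := exists_dvd_pow_sub_one P.isPGroup' (φ ^ (o / r)) hrp hψ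
  refine hcop r hr ?_ hrp i hi hri
  calc r ∣ o := hro
    _ ∣ orderOf (⟨x, hx⟩ : Subgroup.normalizer (P : Set G)) := orderOf_map_dvd _ _
    _ ∣ Nat.card (Subgroup.normalizer (P : Set G)) := orderOf_dvd_natCard _
    _ ∣ Nat.card G := Subgroup.card_subgroup_dvd_card _

end CfsgLib.CoprimeAction
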