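import Mathlib.GroupTheory.GroupAction.MultipleTransitivity
import Mathlib.GroupTheory.GroupAction.Quotient
import Mathlib.Data.Matrix.Mul
import Mathlib.LinearAlgebra.Matrix.DotProduct
import Mathlib.RingTheory.IntegralClosure.IntegrallyClosed
import Mathlib.RingTheory.Int.Basic
import Mathlib.Tactic

/-!
An automorphism of odd order of a doubly transitive group cannot turn the natural incidence into a nontrivial
symmetric design whose block size is prime to the degree.
-/

set_option autoImplicit false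

namespace CfsgLib.CoprimeAction

open Matrix

variable {G Ω : Type*} [Group G] [Fintype Ω] [MulAction G Ω]

theorem twisted_design [DecidableEq Ω]
    (h2 : ∀ {a b c d : Ω}, a ≠ b → c ≠ d → ∃ g : G, g • a = c ∧ g • b = d)
    (htr : ∀ x y : Ω, ∃ g : G, g • x = y) (o : Ω) (α : MulAut G) {m : ℕ} (hm : Odd m) (hαm : α ^ m = 1)
    (O : Finset Ω) (hO : ∀ g : G, g • o = o → ∀ x ∈ O, α g • x ∈ O) (hne : O.Nonempty)
    (hcop : O.card.Coprime (Fintype.card Ω)) :
    O.card = 1 ∨ O.card + 1 = Fintype.card Ω := by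
  classical
  by_cases hn : Fintype.card Ω ≤ 1
  · left
    have := O.card_le_univ
    have := hne.card_pos
    omega
  obtain ⟨o₁, ho₁⟩ := Fintype.exists_ne_of_one_lt_card (by omega) o
  set n := Fintype.card Ω with hndef
  set k := O.card with hk
  let N : Matrix Ω Ω ℤ := Matrix.of fun x y => if ∃ g : G, g • o = y ∧ (α g)⁻¹ • x ∈ O then 1 else 0
  let J : Matrix Ω Ω ℤ := Matrix.of fun _ _ => 1
  have hJ : ∀ x y, J x y = 1 := fun _ _ => rfl
  have hNeq : ∀ (h : G) x y, N (α h • x) (h • y) = N x y := by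
    intro h x y
    refine if_congr ⟨?_, ?_⟩ rfl rfl
    · rintro ⟨g, hg, hgx⟩
      refine ⟨h⁻¹ * g, by rw [mul_smul, hg, inv_smul_smul], ?_⟩
      rwa [map_mul, _root_.mul_inv_rev, map_inv, inv_inv, mul_smul]
    · rintro ⟨g, hg, hgx⟩
      refine ⟨h * g, by rw [mul_smul, hg], ?_⟩
      rwa [map_mul, _root_.mul_inv_rev, mul_smul, inv_smul_smul]
  have hsum : ∀ (h : G) (f : Ω → ℤ), ∑ z, f z = ∑ z, f (h • z) := fun h f =>
    (Equiv.sum_comp (MulAction.toPerm h) f).symm
  have hcol0 : ∀ x, N x o = if x ∈ O then 1 else 0 := by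
    intro x
    refine if_congr ⟨?_, fun hx => ⟨1, one_smul _ _, by rwa [map_one, inv_one, one_smul]⟩⟩ rfl rfl
    rintro ⟨g, hg, hgx⟩
    have := hO g hg _ hgx
    rwa [smul_inv_smul] at this
  have hcol : ∀ y, ∑ x, N x y = k := by
    intro y
    obtain ⟨h, rfl⟩ := htr o y
    rw [hsum (α h), Finset.sum_congr rfl fun x _ => hNeq h x o, Finset.sum_congr rfl fun x _ => hcol0 x,
      Finset.sum_boole, Finset.filter_mem_eq_inter, Finset.univ_inter, hk]
  have hrowc : ∀ x x', ∑ y, N x y = ∑ y, N x' y := by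
    intro x x'
    obtain ⟨h, rfl⟩ := htr x x'
    obtain ⟨h, rfl⟩ := α.surjective h
    conv_rhs => rw [hsum h]
    exact Finset.sum_congr rfl fun y _ => (hNeq h x y).symm
  have hn0 : (n : ℤ) ≠ 0 := by omega
  have hrow : ∀ x, ∑ y, N x y = k := by
    intro x
    have h1 : ∑ x', ∑ y, N x' y = (n : ℤ) * k := by
      refine Finset.sum_comm.trans ?_
      rw [Finset.sum_congr rfl fun y _ => hcol y, Finset.sum_const, Finset.card_univ, nsmul_eq_mul]
    rw [Finset.sum_congr rfl fun x' _ => hrowc x' x, Finset.sum_const, Finset.card_univ, nsmul_eq_mul] at h1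
    exact mul_left_cancel₀ hn0 h1
  have hNJ : N * J = (k : ℤ) • J := by
    ext x y
    simp [Matrix.mul_apply, hJ, hrow]
  have hJN : J * N = (k : ℤ) • J := by
    ext x y
    simp [Matrix.mul_apply, hJ, hcol]
  have hJNt : J * Nᵀ = (k : ℤ) • J := by
    ext x y
    simp [Matrix.mul_apply, hJ, hrow]
  -- matrices invariant under `G`
  have hinv : ∀ F : Matrix Ω Ω ℤ, (∀ (g : G) x y, F (g • x) (g • y) = F x y) →
      F = (F o o - F o o₁) • (1 : Matrix Ω Ω ℤ) + F o o₁ • J := by
    intro F hF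
    ext x y
    by_cases hxy : x = y
    · subst hxy
      obtain ⟨g, rfl⟩ := htr o x
      simp only [Matrix.add_apply, Matrix.smul_apply, smul_eq_mul, hJ, Matrix.one_apply_eq, hF]
      ring
    · obtain ⟨g, rfl, rfl⟩ := h2 (a := o) (b := o₁) (Ne.symm ho₁) hxy
      simp only [Matrix.add_apply, Matrix.smul_apply, smul_eq_mul, hJ, Matrix.one_apply_ne hxy, hF]
      ring
  have hpow : ∀ (j : ℕ) (h : G) x y, (N ^ j) ((α ^ j) h • x) (h • y) = (N ^ j) x y := by
    intro j
    induction j with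
    | zero =>
      intro h x y
      simp [Matrix.one_apply]
    | succ j ih =>
      intro h x y
      rw [pow_succ, Matrix.mul_apply, Matrix.mul_apply, hsum (α h)]
      refine Finset.sum_congr rfl fun z _ => ?_
      rw [pow_succ, MulAut.mul_apply, ih, hNeq]
  have hNN : ∀ (g : G) x x', (N * Nᵀ) (g • x) (g • x') = (N * Nᵀ) x x' := by
    intro g x x'
    obtain ⟨h, rfl⟩ := α.surjective g
    simp only [Matrix.mul_apply, Matrix.transpose_apply]
    rw [hsum h]
    exact Finset.sum_congr rfl fun y _ => by rw [hNeq, hNeq]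
  set lam := (N * Nᵀ) o o₁ with hlam
  have hdiag : (N * Nᵀ) o o = k := by
    simp only [Matrix.mul_apply, Matrix.transpose_apply]
    rw [← hrow o]
    refine Finset.sum_congr rfl fun y _ => ?_
    simp only [N, Matrix.of_apply]
    split_ifs <;> rfl
  set q : ℤ := k - lam with hq
  have hNNt : N * Nᵀ = q • (1 : Matrix Ω Ω ℤ) + lam • J := by
    rw [hinv _ hNN, hdiag]
  have hlam0 : 0 ≤ lam := by
    rw [hlam, Matrix.mul_apply]
    refine Finset.sum_nonneg fun y _ => mul_nonneg ?_ ?_ <;>
      · simp only [Matrix.transpose_apply, N, Matrix.of_apply]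
        split_ifs <;> norm_num
  have hNtJ : Nᵀ * J = (k : ℤ) • J := by
    ext x y
    simp [Matrix.mul_apply, hJ, hcol]
  have hJJ : J * J = (n : ℤ) • J := by
    ext x y
    simp [Matrix.mul_apply, hJ, hndef]
  have hk2 : (k : ℤ) ^ 2 = q + lam * n := by
    have h1 : N * Nᵀ * J = ((k : ℤ) ^ 2) • J := by
      rw [Matrix.mul_assoc, hNtJ, Matrix.mul_smul, hNJ, smul_smul, sq]
    have h3 := congrFun (congrFun h1 o) o
    rw [hNNt, Matrix.add_mul, Matrix.smul_mul, Matrix.smul_mul, Matrix.one_mul, hJJ] at h3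
    simp only [Matrix.add_apply, Matrix.smul_apply, smul_eq_mul, hJ] at h3
    linarith
  have hpowJ : ∀ j : ℕ, N ^ j * J = ((k : ℤ) ^ j) • J := by
    intro j
    induction j with
    | zero => simp
    | succ j ih => rw [pow_succ, Matrix.mul_assoc, hNJ, Matrix.mul_smul, ih, smul_smul, pow_succ']
  have hpowT : ∀ j : ℕ, ∃ c : ℤ, N ^ j * Nᵀ ^ j = q ^ j • (1 : Matrix Ω Ω ℤ) + c • J := by
    intro j
    induction j with
    | zero => exact ⟨0, by simp⟩
    | succ j ih =>
      obtain ⟨c, hc⟩ := ih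
      refine ⟨q ^ j * lam + c * ((k : ℤ) * k), ?_⟩
      rw [pow_succ' N, pow_succ Nᵀ, ← Matrix.mul_assoc, Matrix.mul_assoc N, hc]
      simp only [Matrix.mul_add, Matrix.add_mul, Matrix.mul_smul, Matrix.smul_mul, Matrix.mul_one, hNJ,
        hNNt, hJNt, smul_add, smul_smul, add_smul, pow_succ, mul_assoc]
      abel
  set M := N ^ m with hM
  have hMinv : ∀ (g : G) x y, M (g • x) (g • y) = M x y := by
    intro g x y
    have := hpow m g x y
    rwa [hαm, MulAut.one_apply] at this
  set a := M o o₁ with ha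
  set b := M o o - M o o₁ with hb
  have hMeq : M = b • (1 : Matrix Ω Ω ℤ) + a • J := hinv M hMinv
  have hbq : b ^ 2 = q ^ m := by
    obtain ⟨c, hc⟩ := hpowT m
    rw [← Matrix.transpose_pow, ← hM] at hc
    have hJt : Jᵀ = J := by ext x y; rfl
    rw [hMeq, Matrix.transpose_add, Matrix.transpose_smul, Matrix.transpose_smul, Matrix.transpose_one, hJt] at hc
    simp only [Matrix.add_mul, Matrix.mul_add, Matrix.smul_mul, Matrix.mul_smul, Matrix.one_mul, Matrix.mul_one,
      hJJ] at hc
    have e1 := congrFun (congrFun hc o) o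
    have e2 := congrFun (congrFun hc o) o₁
    simp only [Matrix.add_apply, Matrix.smul_apply, smul_eq_mul, hJ, Matrix.one_apply_eq, Matrix.one_apply_ne (Ne.symm ho₁), smul_add, smul_smul] at e1 e2
    linear_combination e1 - e2
  have hkm : (k : ℤ) ^ m = b + a * n := by
    have h1 := congrFun (congrFun (hpowJ m) o) o
    rw [← hM, hMeq, Matrix.add_mul, Matrix.smul_mul, Matrix.smul_mul, Matrix.one_mul, hJJ] at h1
    simp only [Matrix.add_apply, Matrix.smul_apply, smul_eq_mul, hJ] at h1
    linarith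
  have hkn : k < n := by
    rcases lt_or_eq_of_le (O.card_le_univ : k ≤ n) with h | h
    · exact h
    · rw [show k = n from h] at hcop
      have : n = 1 := (Nat.coprime_self _).1 hcop
      omega
  have hk1 : 1 ≤ k := hne.card_pos
  obtain ⟨j, hj⟩ := hm
  -- `q` is a unit mod `n`
  have hqn : IsCoprime (n : ℤ) q := by
    have h1 : IsCoprime (n : ℤ) ((k : ℤ) ^ 2) :=
      (Nat.isCoprime_iff_coprime.2 hcop.symm).pow_right
    have h3 := h1.add_mul_left_right (-lam)
    rwa [show (k : ℤ) ^ 2 + (n : ℤ) * -lam = q by rw [hk2]; ring] at h3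
  have hq0 : q ≠ 0 := by
    intro h
    rw [h] at hk2
    have h' : (k : ℤ) = lam := by omega
    rw [← h'] at hk2
    have h'' : (k : ℤ) * k = k * n := by linear_combination hk2
    have := mul_left_cancel₀ (by omega : (k : ℤ) ≠ 0) h''
    omega
  have hdvd : q ^ j ∣ b := by
    refine (Int.pow_dvd_pow_iff (n := 2) two_ne_zero).1 ⟨q, ?_⟩
    rw [hbq, hj]
    ring
  obtain ⟨s, hs⟩ := hdvd
  have hs2 : s ^ 2 = q := by
    refine mul_left_cancel₀ (pow_ne_zero (2 * j) hq0) ?_
    rw [hs, hj] at hbq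
    linear_combination hbq
  have hdiv : (n : ℤ) ∣ (k : ℤ) - s := by
    refine (hqn.pow_right (n := j)).dvd_of_dvd_mul_left ?_
    have h1 : (n : ℤ) ∣ (k : ℤ) * ((k : ℤ) ^ 2) ^ j - k * q ^ j := by
      rw [← mul_sub]
      refine dvd_mul_of_dvd_right (dvd_trans ?_ (sub_dvd_pow_sub_pow _ _ j)) _
      exact ⟨lam, by rw [hk2]; ring⟩
    obtain ⟨c, hc⟩ := h1
    refine ⟨a - c, ?_⟩
    rw [hs] at hkm
    rw [hj, pow_succ, pow_mul] at hkm
    linear_combination hkm - hc
  obtain ⟨c, hc⟩ := hdiv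
  have hslt : s ^ 2 ≤ (k : ℤ) := by rw [hs2, hq]; omega
  have hsle : s ≤ (k : ℤ) ∧ -(k : ℤ) ≤ s := by constructor <;> nlinarith
  have hc01 : c = 0 ∨ c = 1 := by
    have h1 : -1 < c := by nlinarith
    have h2 : c < 2 := by nlinarith
    omega
  rcases hc01 with rfl | rfl
  · left
    have hsk : s = k := by linarith
    rw [hsk] at hslt
    have : (k : ℤ) ≤ 1 := by nlinarith
    omega
  · right
    have hsk : s = (k : ℤ) - n := by linarith
    rw [hsk] at hs2
    have hl : lam = 2 * (k : ℤ) - n := mul_right_cancel₀ hn0 (by linear_combination hs2 - hk2)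
    rw [hq, hl] at hs2
    have hd : ((n : ℤ) - k) * ((n : ℤ) - k) = ((n : ℤ) - k) * 1 := by linear_combination hs2
    have := mul_left_cancel₀ (by omega : (n : ℤ) - k ≠ 0) hd
    omega

/-- An automorphism mapping a point stabiliser into another point stabiliser is induced by a permutation. -/
theorem exists_perm_of_fixed [Finite G] (htr : ∀ x y : Ω, ∃ g : G, g • x = y) (o ω : Ω) (α : MulAut G)
    (hfix : ∀ g : G, g • o = o → α g • ω = ω) :
    ∃ σ : Equiv.Perm Ω, ∀ (g : G) (x : Ω), σ (g • x) = α g • σ x := by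
  classical
  haveI : MulAction.IsPretransitive G Ω := ⟨htr⟩
  have hle : (MulAction.stabilizer G o).map α.toMonoidHom ≤ MulAction.stabilizer G ω := by
    rintro _ ⟨g, hg, rfl⟩
    exact hfix g hg
  have heq : (MulAction.stabilizer G o).map α.toMonoidHom = MulAction.stabilizer G ω := by
    refine Subgroup.eq_of_le_of_card_ge hle (le_of_eq ?_)
    rw [Subgroup.card_map_of_injective α.injective]
    have h1 := (MulAction.stabilizer G o).card_mul_index
    have h2 := (MulAction.stabilizer G ω).card_mul_index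
    rw [MulAction.index_stabilizer_of_transitive] at h1 h2
    exact Nat.eq_of_mul_eq_mul_right (Nat.card_pos_iff.2 ⟨⟨o⟩, inferInstance⟩) (h2.trans h1.symm)
  choose c hc using fun x => htr o x
  let f : Ω → Ω := fun x => α (c x) • ω
  have hf : ∀ (g : G) (x : Ω), f (g • x) = α g • f x := by
    intro g x
    have h1 : ((c x)⁻¹ * g⁻¹ * c (g • x)) • o = o := by
      rw [mul_smul, mul_smul, hc, inv_smul_smul]
      exact inv_smul_eq_iff.2 (hc x).symm
    have h2 := hfix _ h1
    rw [map_mul, map_mul, map_inv, map_inv, mul_smul, mul_smul] at h2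
    exact (inv_smul_eq_iff.1 (inv_smul_eq_iff.1 h2))
  have hinj : Function.Injective f := by
    intro x y h
    have h1 : α ((c x)⁻¹ * c y) ∈ MulAction.stabilizer G ω := by
      show α ((c x)⁻¹ * c y) • ω = ω
      rw [map_mul, map_inv, mul_smul]
      exact inv_smul_eq_iff.2 h.symm
    rw [← heq] at h1
    obtain ⟨z, hz, hze⟩ := h1
    rw [α.injective hze] at hz
    have h3 : (c x)⁻¹ • (c y • o) = o := (mul_smul _ _ _).symm.trans hz
    rw [hc, inv_smul_eq_iff, hc] at h3
    exact h3.symm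
  exact ⟨Equiv.ofBijective f (Finite.injective_iff_bijective.1 hinj), hf⟩

end CfsgLib.CoprimeAction
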